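import Mathlib
import Cfsg.Prelude.Def_GeometricClasses
import Cfsg.Prelude.Def_ClassicalGeometry

/-!
# S5976 (team project GUSP): package interface

`PSp_{2d}(q)`, `q` odd, and the subgroup `N(K)` of type `GU_d(q)`: every element of prime
order `r` (with `r` dividing the index) is conjugate into `N(K)` iff `r = 2`.

Every `Pkg...` below is a `Prop`; a package is delivered as a theorem whose type is that `Prop`.
Notation: `B = Cfsg.sympForm d F` (so `B u v = u ⬝ᵥ J *ᵥ v`, `J = Matrix.J (Fin d) F`),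
`q = Fintype.card F` (odd), `a` a non-square of `F`.
-/

set_option autoImplicit false

namespace Cfsg.Agent.Lib.Helper99.GUSP

open Matrix Polynomial

universe u

/-- The index type of the symplectic space of dimension `2 d`. -/
abbrev SI (d : ℕ) : Type := Fin d ⊕ Fin d

/-- `α` is skew-adjoint for `sympForm` and `α * α = a`. -/
def IsAlpha (d : ℕ) {F : Type u} [Field F] (a : F) (α : Matrix (SI d) (SI d) F) : Prop :=
  α * α = a • (1 : Matrix (SI d) (SI d) F) ∧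
    ∀ u v : SI d → F, Cfsg.sympForm d F (α *ᵥ u) v = - Cfsg.sympForm d F u (α *ᵥ v)

/-- The standard model of such an `α`: `e_j ↦ f_j`, `f_j ↦ a e_j`. -/
def alpha0 (d : ℕ) {F : Type u} [Field F] (a : F) : Matrix (SI d) (SI d) F :=
  Matrix.fromBlocks 0 (a • 1) 1 0

/-- `x` commutes or anticommutes with `α`. -/
def PM {d : ℕ} {F : Type u} [Field F] (x α : Matrix (SI d) (SI d) F) : Prop :=
  x * α = α * x ∨ x * α = -(α * x)

/-- The description of `K` as `F + F α`. -/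
def KIs {d : ℕ} {F : Type u} [Field F] (K : Subalgebra F (Matrix (SI d) (SI d) F))
    (α : Matrix (SI d) (SI d) F) : Prop :=
  ∀ k : Matrix (SI d) (SI d) F, k ∈ K ↔ ∃ x y : F, k = x • (1 : Matrix (SI d) (SI d) F) + y • α

/-! ## Structure of `K` and of its normalizer -/

/-- [STRUCT] `K = F + F α` with `α` skew-adjoint, `α² = a` a non-square. -/
def PkgStruct : Prop :=
  ∀ {F : Type u} [Field F] [Fintype F], Odd (Fintype.card F) → ∀ (d : ℕ)
    (K : Subalgebra F (Matrix (SI d) (SI d) F)), Cfsg.Geo.IsFieldSubalgebra 2 K →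
    Cfsg.Geo.IsAdjointClosedFor (Cfsg.sympForm d F) K →
    ¬ Cfsg.Geo.IsSelfAdjointFor (Cfsg.sympForm d F) K →
    ∃ (a : F) (α : Matrix (SI d) (SI d) F), ¬ IsSquare a ∧ IsAlpha d a α ∧ KIs K α

/-- [NORM] a symplectic `g` normalizes `K` iff `g α = ± α g`. -/
def PkgNorm : Prop :=
  ∀ {F : Type u} [Field F] [Fintype F], Odd (Fintype.card F) → ∀ (d : ℕ), 1 ≤ d →
    ∀ (K : Subalgebra F (Matrix (SI d) (SI d) F)) (a : F) (α : Matrix (SI d) (SI d) F),
    ¬ IsSquare a → IsAlpha d a α → KIs K α →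
    ∀ g : GL (SI d) F, g ∈ Cfsg.spGL d F →
      (g ∈ Cfsg.Geo.subalgebraNormalizer K ↔ PM (g : Matrix (SI d) (SI d) F) α)

/-- [EVEN] `α`-invariant subspaces have even dimension (`α² = a` a non-square). -/
def PkgEven : Prop :=
  ∀ {F : Type u} [Field F] (d : ℕ) (a : F) (α : Matrix (SI d) (SI d) F), ¬ IsSquare a →
    α * α = a • (1 : Matrix (SI d) (SI d) F) → ∀ W : Submodule F (SI d → F),
    (∀ w ∈ W, α *ᵥ w ∈ W) → Even (Module.finrank F W)

/-! ## Normal forms -/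

/-- [PEEL] an orthogonal family of `β`-invariant non-degenerate planes `⟨u_j, β u_j⟩`
(`β` skew-adjoint, `β² = b ≠ 0`, `b` possibly a square). -/
def PkgPeel : Prop :=
  ∀ {F : Type u} [Field F], (2 : F) ≠ 0 → ∀ (d : ℕ) (b : F) (β : Matrix (SI d) (SI d) F),
    b ≠ 0 → IsAlpha d b β →
    ∃ u : Fin d → (SI d → F), (∀ j, Cfsg.sympForm d F (β *ᵥ u j) (u j) ≠ 0) ∧
      ∀ j k, j ≠ k →
        Cfsg.sympForm d F (u j) (u k) = 0 ∧ Cfsg.sympForm d F (β *ᵥ u j) (u k) = 0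

/-- Every `α` is `Sp`-conjugate to the standard model. -/
def NF : Prop :=
  ∀ {F : Type u} [Field F] [Fintype F], Odd (Fintype.card F) → ∀ (d : ℕ) (a : F)
    (α : Matrix (SI d) (SI d) F), ¬ IsSquare a → IsAlpha d a α →
    ∃ g : GL (SI d) F, g ∈ Cfsg.spGL d F ∧
      α * (g : Matrix (SI d) (SI d) F) = (g : Matrix (SI d) (SI d) F) * alpha0 d a

/-- [NF] -/
def PkgNF : Prop := PkgPeel.{u} → NF.{u}

/-- [INVP] an involution of `Sp` commutes with some `α`. -/
def PkgInvP : Prop :=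
  ∀ {F : Type u} [Field F] [Fintype F], Odd (Fintype.card F) → ∀ (d : ℕ) (a : F),
    ¬ IsSquare a → ∀ x : GL (SI d) F, x ∈ Cfsg.spGL d F →
      (x : Matrix (SI d) (SI d) F) * (x : Matrix (SI d) (SI d) F) = 1 →
      ∃ α : Matrix (SI d) (SI d) F, IsAlpha d a α ∧ PM (x : Matrix (SI d) (SI d) F) α

/-- An `x ∈ Sp` with `x² = -1` anticommutes (or commutes) with some `α`. -/
def InvM : Prop :=
  ∀ {F : Type u} [Field F] [Fintype F], Odd (Fintype.card F) → ∀ (d : ℕ) (a : F),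
    ¬ IsSquare a → ∀ x : GL (SI d) F, x ∈ Cfsg.spGL d F →
      (x : Matrix (SI d) (SI d) F) * (x : Matrix (SI d) (SI d) F) = -1 →
      ∃ α : Matrix (SI d) (SI d) F, IsAlpha d a α ∧ PM (x : Matrix (SI d) (SI d) F) α

/-- [INVM] -/
def PkgInvM : Prop := PkgPeel.{u} → InvM.{u}

/-! ## Derangements -/

/-- An element of `Sp_{2d}(F)` with `x ^ r = 1`, not scalar, which does not commute or
anticommute with any `α` (so no conjugate of it normalizes `K`). -/
def Derang (d : ℕ) (F : Type u) [Field F] (r : ℕ) : Prop :=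
  ∃ x : GL (SI d) F, x ∈ Cfsg.spGL d F ∧ (x : Matrix (SI d) (SI d) F) ^ r = 1 ∧
    (∀ z : F, (x : Matrix (SI d) (SI d) F) ≠ z • (1 : Matrix (SI d) (SI d) F)) ∧
    ∀ (a : F) (α : Matrix (SI d) (SI d) F), ¬ IsSquare a → IsAlpha d a α →
      ¬ PM (x : Matrix (SI d) (SI d) F) α

/-- `r = p`: a transvection. -/
def DerP : Prop :=
  ∀ {F : Type u} [Field F] [Fintype F] {p : ℕ} [Fact p.Prime] [CharP F p],
    Odd (Fintype.card F) → ∀ (d : ℕ), 2 ≤ d → Derang d F p

/-- [DERP] -/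
def PkgDerP : Prop := PkgEven.{u} → DerP.{u}

/-- `r` odd, `r ≠ p`, the order `i` of `q` mod `r` odd and `≤ d`. -/
def DerA : Prop :=
  ∀ {F : Type u} [Field F] [Fintype F] {p : ℕ} [Fact p.Prime] [CharP F p],
    Odd (Fintype.card F) → ∀ (d r : ℕ), r.Prime → r ≠ 2 → r ≠ p →
    Odd (orderOf ((Fintype.card F : ℕ) : ZMod r)) →
    orderOf ((Fintype.card F : ℕ) : ZMod r) ≤ d → Derang d F r

/-- [DERA] -/
def PkgDerA : Prop := PkgEven.{u} → DerA.{u}

/-- [COMM] the commutant of a cyclic irreducible endomorphism. -/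
def PkgComm : Prop :=
  ∀ {F : Type u} [Field F] {V : Type u} [AddCommGroup V] [Module F V] [FiniteDimensional F V]
    (y T : V →ₗ[F] V) (π : F[X]), Irreducible π → Polynomial.aeval y π = 0 →
    π.natDegree = Module.finrank F V → y ∘ₗ T = T ∘ₗ y → ∃ g : F[X], T = Polynomial.aeval y g

/-- `r` odd, `r ≠ p`, the order `i` of `q` mod `r` divisible by `4` and `≤ 2 d`. -/
def DerB : Prop :=
  ∀ {F : Type u} [Field F] [Fintype F] {p : ℕ} [Fact p.Prime] [CharP F p],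
    Odd (Fintype.card F) → ∀ (d r : ℕ), r.Prime → r ≠ 2 → r ≠ p →
    4 ∣ orderOf ((Fintype.card F : ℕ) : ZMod r) →
    orderOf ((Fintype.card F : ℕ) : ZMod r) ≤ 2 * d → Derang d F r

/-- [DERB] -/
def PkgDerB : Prop := PkgComm.{u} → DerB.{u}

/-! ## The index -/

/-- [SPCARD] the order of `spGL`. -/
def PkgSpCard : Prop :=
  ∀ {F : Type u} [Field F] [Fintype F] (d : ℕ),
    Nat.card ↥(Cfsg.spGL d F) = Fintype.card F ^ (d ^ 2) *
      ∏ i ∈ Finset.range d, (Fintype.card F ^ (2 * (i + 1)) - 1)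

/-- [GU] a subgroup of `C_Sp(alpha0)` of order `|GU_d(q)|`. -/
def PkgGU : Prop :=
  ∀ {F : Type u} [Field F] [Fintype F], Odd (Fintype.card F) → ∀ (d : ℕ) (a : F),
    ¬ IsSquare a → ∃ S : Subgroup (GL (SI d) F), S ≤ Cfsg.spGL d F ∧
      (∀ g ∈ S, (g : Matrix (SI d) (SI d) F) * alpha0 d a
        = alpha0 d a * (g : Matrix (SI d) (SI d) F)) ∧
      Nat.card S = Fintype.card F ^ (d * (d - 1) / 2) *
        ∏ i ∈ Finset.range d,
          (if Even i then Fintype.card F ^ (i + 1) + 1 else Fintype.card F ^ (i + 1) - 1)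

/-- The index of `N(K) ∩ Sp` in `Sp` divides `q^(d(d+1)/2) ∏_{j=1}^d (q^j + (-1)^j)`. -/
def Idx : Prop :=
  ∀ {F : Type u} [Field F] [Fintype F], Odd (Fintype.card F) → ∀ (d : ℕ), 1 ≤ d →
    ∀ (K : Subalgebra F (Matrix (SI d) (SI d) F)) (a : F) (α : Matrix (SI d) (SI d) F),
    ¬ IsSquare a → IsAlpha d a α → KIs K α →
    (Cfsg.Geo.subalgebraNormalizer K).relIndex (Cfsg.spGL d F) ∣
      Fintype.card F ^ (d * (d + 1) / 2) *
        ∏ j ∈ Finset.range d,
          (if Even j then Fintype.card F ^ (j + 1) - 1 else Fintype.card F ^ (j + 1) + 1)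

/-- [IDX] -/
def PkgIdx : Prop := PkgNorm.{u} → NF.{u} → PkgSpCard.{u} → PkgGU.{u} → Idx.{u}

/-- [ARITH] -/
def PkgArith : Prop :=
  ∀ (q r d : ℕ), r.Prime → r ≠ 2 → ¬ r ∣ q →
    r ∣ ∏ j ∈ Finset.range d, (if Even j then q ^ (j + 1) - 1 else q ^ (j + 1) + 1) →
    (Odd (orderOf (q : ZMod r)) ∧ orderOf (q : ZMod r) ≤ d) ∨
      (4 ∣ orderOf (q : ZMod r) ∧ orderOf (q : ZMod r) ≤ 2 * d)

end Cfsg.Agent.Lib.Helper99.GUSP
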