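import Mathlib
import Cfsg.Agent.Lib.Helper99.GUSP.Defs
import Cfsg.Agent.Lib.Helper40.Symp

/-!
# S5976 (team project GUSP): assembly of the packages
-/

set_option autoImplicit false

namespace Cfsg.Agent.Lib.Helper99.GUSP

open Matrix Polynomial

universe u

section Asm

variable {F : Type u} [Field F] {d : ℕ}

theorem gl_inv_mul (g : GL (SI d) F) :
    ((g⁻¹ : GL (SI d) F) : Matrix (SI d) (SI d) F) * (g : Matrix (SI d) (SI d) F) = 1 := by
  rw [← Units.val_mul, inv_mul_cancel, Units.val_one]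

theorem gl_mul_inv (g : GL (SI d) F) :
    (g : Matrix (SI d) (SI d) F) * ((g⁻¹ : GL (SI d) F) : Matrix (SI d) (SI d) F) = 1 := by
  rw [← Units.val_mul, mul_inv_cancel, Units.val_one]

/-- Conjugating `α` by a symplectic matrix. -/
theorem isAlpha_conj {a : F} {α : Matrix (SI d) (SI d) F} (hα : IsAlpha d a α)
    (g : GL (SI d) F) (hg : g ∈ Cfsg.spGL d F) :
    IsAlpha d a ((g : Matrix (SI d) (SI d) F) * α *
      ((g⁻¹ : GL (SI d) F) : Matrix (SI d) (SI d) F)) := by
  have hg' : ∀ u v : SI d → F, Cfsg.sympForm d F ((g : Matrix (SI d) (SI d) F) *ᵥ u)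
      ((g : Matrix (SI d) (SI d) F) *ᵥ v) = Cfsg.sympForm d F u v := hg
  have hgi : ∀ u v : SI d → F, Cfsg.sympForm d F ((g : Matrix (SI d) (SI d) F) *ᵥ u) v
      = Cfsg.sympForm d F u (((g⁻¹ : GL (SI d) F) : Matrix (SI d) (SI d) F) *ᵥ v) := by
    intro u v
    have h := hg' u (((g⁻¹ : GL (SI d) F) : Matrix (SI d) (SI d) F) *ᵥ v)
    rw [Matrix.mulVec_mulVec, gl_mul_inv, Matrix.one_mulVec] at h
    exact h
  constructor
  · calc (g : Matrix (SI d) (SI d) F) * α * ((g⁻¹ : GL (SI d) F) : Matrix (SI d) (SI d) F) *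
          ((g : Matrix (SI d) (SI d) F) * α * ((g⁻¹ : GL (SI d) F) : Matrix (SI d) (SI d) F))
        = (g : Matrix (SI d) (SI d) F) * α *
            (((g⁻¹ : GL (SI d) F) : Matrix (SI d) (SI d) F) * (g : Matrix (SI d) (SI d) F)) * α *
            ((g⁻¹ : GL (SI d) F) : Matrix (SI d) (SI d) F) := by
          simp only [Matrix.mul_assoc]
      _ = (g : Matrix (SI d) (SI d) F) * (α * α) *
            ((g⁻¹ : GL (SI d) F) : Matrix (SI d) (SI d) F) := by
          rw [gl_inv_mul, Matrix.mul_one]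
          simp only [Matrix.mul_assoc]
      _ = a • (1 : Matrix (SI d) (SI d) F) := by
          rw [hα.1, Matrix.mul_smul, Matrix.smul_mul, Matrix.mul_one, gl_mul_inv]
  · intro u v
    have hgi2 : ∀ u v : SI d → F, Cfsg.sympForm d F u ((g : Matrix (SI d) (SI d) F) *ᵥ v)
        = Cfsg.sympForm d F (((g⁻¹ : GL (SI d) F) : Matrix (SI d) (SI d) F) *ᵥ u) v := by
      intro u v
      have h := hg' (((g⁻¹ : GL (SI d) F) : Matrix (SI d) (SI d) F) *ᵥ u) v
      rw [Matrix.mulVec_mulVec, gl_mul_inv, Matrix.one_mulVec] at h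
      exact h
    rw [← Matrix.mulVec_mulVec, ← Matrix.mulVec_mulVec, hgi, hα.2, ← Matrix.mulVec_mulVec,
      ← Matrix.mulVec_mulVec, hgi2]

/-- Moving a conjugation from `x` to `α`. -/
theorem pm_conj (x g : GL (SI d) F) (α : Matrix (SI d) (SI d) F) :
    PM ((g⁻¹ * x * g : GL (SI d) F) : Matrix (SI d) (SI d) F) α ↔
      PM (x : Matrix (SI d) (SI d) F) ((g : Matrix (SI d) (SI d) F) * α *
        ((g⁻¹ : GL (SI d) F) : Matrix (SI d) (SI d) F)) := by
  obtain ⟨G, hG⟩ : ∃ G : Matrix (SI d) (SI d) F, G = (g : Matrix (SI d) (SI d) F) := ⟨_, rfl⟩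
  obtain ⟨G', hG'⟩ : ∃ G' : Matrix (SI d) (SI d) F,
      G' = ((g⁻¹ : GL (SI d) F) : Matrix (SI d) (SI d) F) := ⟨_, rfl⟩
  obtain ⟨X, hX⟩ : ∃ X : Matrix (SI d) (SI d) F, X = (x : Matrix (SI d) (SI d) F) := ⟨_, rfl⟩
  have h1 : G' * G = 1 := by rw [hG, hG']; exact gl_inv_mul g
  have h2 : G * G' = 1 := by rw [hG, hG']; exact gl_mul_inv g
  have hc : ((g⁻¹ * x * g : GL (SI d) F) : Matrix (SI d) (SI d) F) = G' * X * G := by
    rw [Units.val_mul, Units.val_mul, hG, hG', hX]
  rw [hc, ← hG, ← hG', ← hX]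
  unfold PM
  have e1 : G' * X * G * α = α * (G' * X * G) ↔ X * (G * α * G') = G * α * G' * X := by
    constructor
    · intro h
      calc X * (G * α * G') = G * (G' * X * G * α) * G' := by
            simp only [Matrix.mul_assoc]
            rw [← Matrix.mul_assoc G G', h2, Matrix.one_mul]
        _ = G * (α * (G' * X * G)) * G' := by rw [h]
        _ = G * α * G' * X := by
            simp only [Matrix.mul_assoc]
            rw [h2, Matrix.mul_one]
    · intro h
      calc G' * X * G * α = G' * (X * (G * α * G')) * G := by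
            simp only [Matrix.mul_assoc]
            rw [h1, Matrix.mul_one]
        _ = G' * (G * α * G' * X) * G := by rw [h]
        _ = α * (G' * X * G) := by
            simp only [Matrix.mul_assoc]
            rw [← Matrix.mul_assoc G' G, h1, Matrix.one_mul]
  have e2 : G' * X * G * α = -(α * (G' * X * G)) ↔ X * (G * α * G') = -(G * α * G' * X) := by
    constructor
    · intro h
      calc X * (G * α * G') = G * (G' * X * G * α) * G' := by
            simp only [Matrix.mul_assoc]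
            rw [← Matrix.mul_assoc G G', h2, Matrix.one_mul]
        _ = G * (-(α * (G' * X * G))) * G' := by rw [h]
        _ = -(G * α * G' * X) := by
            simp only [Matrix.mul_assoc, Matrix.mul_neg, Matrix.neg_mul]
            rw [h2, Matrix.mul_one]
    · intro h
      calc G' * X * G * α = G' * (X * (G * α * G')) * G := by
            simp only [Matrix.mul_assoc]
            rw [h1, Matrix.mul_one]
        _ = G' * (-(G * α * G' * X)) * G := by rw [h]
        _ = -(α * (G' * X * G)) := by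
            simp only [Matrix.mul_assoc, Matrix.mul_neg, Matrix.neg_mul]
            rw [← Matrix.mul_assoc G' G, h1, Matrix.one_mul]
  rw [e1, e2]

end Asm

/-- The assembly: S5976 from the packages. -/
theorem s5976_of (hS : PkgStruct.{u}) (hN : PkgNorm.{u}) (hNF : NF.{u}) (hIP : PkgInvP.{u})
    (hIM : InvM.{u}) (hDP : DerP.{u}) (hDA : DerA.{u}) (hDB : DerB.{u}) (hIdx : Idx.{u})
    (hAr : PkgArith)
    {F : Type u} [Field F] [Fintype F] {p : ℕ} [Fact p.Prime] [CharP F p] {q : ℕ}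
    (hq : Fintype.card F = q)
    (hodd : Odd q) (d : ℕ) (hd : 2 ≤ d)
    (K : Subalgebra F (Matrix (Fin d ⊕ Fin d) (Fin d ⊕ Fin d) F))
    (hK : Cfsg.Geo.IsFieldSubalgebra 2 K)
    (hKf : Cfsg.Geo.IsAdjointClosedFor (Cfsg.sympForm d F) K)
    (hKns : ¬ Cfsg.Geo.IsSelfAdjointFor (Cfsg.sympForm d F) K)
    (r : ℕ) [Fact r.Prime]
    (hΩ : r ∣ (Cfsg.Geo.subalgebraNormalizer K).relIndex (Cfsg.spGL d F)) :
    (∀ x ∈ Cfsg.spGL d F, (∃ z : F, ((x ^ r : GL (Fin d ⊕ Fin d) F) :
        Matrix (Fin d ⊕ Fin d) (Fin d ⊕ Fin d) F) =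
          z • (1 : Matrix (Fin d ⊕ Fin d) (Fin d ⊕ Fin d) F)) →
      (∀ z : F, (x : Matrix (Fin d ⊕ Fin d) (Fin d ⊕ Fin d) F) ≠
        z • (1 : Matrix (Fin d ⊕ Fin d) (Fin d ⊕ Fin d) F)) →
      ∃ g ∈ Cfsg.spGL d F, g⁻¹ * x * g ∈ Cfsg.Geo.subalgebraNormalizer K) ↔ r = 2 := by
  classical
  subst hq
  have hd1 : 1 ≤ d := by omega
  have hr : r.Prime := Fact.out
  obtain ⟨a, α, ha, hα, hKα⟩ := hS hodd d K hK hKf hKns
  -- conjugates into the normalizer
  have key : ∀ x ∈ Cfsg.spGL d F, ∀ g ∈ Cfsg.spGL d F,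
      (g⁻¹ * x * g ∈ Cfsg.Geo.subalgebraNormalizer K ↔
        PM (x : Matrix (SI d) (SI d) F) ((g : Matrix (SI d) (SI d) F) * α *
          ((g⁻¹ : GL (SI d) F) : Matrix (SI d) (SI d) F))) := by
    intro x hx g hg
    have hmem : g⁻¹ * x * g ∈ Cfsg.spGL d F :=
      (Cfsg.spGL d F).mul_mem ((Cfsg.spGL d F).mul_mem ((Cfsg.spGL d F).inv_mem hg) hx) hg
    rw [hN hodd d hd1 K a α ha hα hKα _ hmem]
    exact pm_conj x g α
  constructor
  · intro hall
    by_contra hr2
    have hdiv := (hΩ.trans (hIdx hodd d hd1 K a α ha hα hKα))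
    have fin : ∀ x : GL (SI d) F, x ∈ Cfsg.spGL d F → (x : Matrix (SI d) (SI d) F) ^ r = 1 →
        (∀ z : F, (x : Matrix (SI d) (SI d) F) ≠ z • (1 : Matrix (SI d) (SI d) F)) →
        (∀ (a : F) (α : Matrix (SI d) (SI d) F), ¬ IsSquare a → IsAlpha d a α →
          ¬ PM (x : Matrix (SI d) (SI d) F) α) → False := by
      intro x hx hxr hns hder
      obtain ⟨g, hg, hmem⟩ := hall x hx ⟨1, by rw [Units.val_pow_eq_pow_val, hxr, one_smul]⟩ hns
      exact hder a _ ha (isAlpha_conj hα g hg) ((key x hx g hg).mp hmem)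
    rcases (Nat.Prime.dvd_mul hr).mp hdiv with h | h
    · -- r = p
      have hrq : r ∣ Fintype.card F := hr.dvd_of_dvd_pow h
      obtain ⟨n, hn⟩ := FiniteField.card F p
      have hrp : r = p := by
        rw [hn.2] at hrq
        exact (Nat.prime_dvd_prime_iff_eq hr hn.1).mp (hr.dvd_of_dvd_pow hrq)
      subst hrp
      obtain ⟨x, hx, hxr, hns, hder⟩ := hDP (F := F) (p := r) hodd d hd
      exact fin x hx hxr hns hder
    · by_cases hrq : r ∣ Fintype.card F
      · obtain ⟨n, hn⟩ := FiniteField.card F p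
        have hrp : r = p := by
          rw [hn.2] at hrq
          exact (Nat.prime_dvd_prime_iff_eq hr hn.1).mp (hr.dvd_of_dvd_pow hrq)
        subst hrp
        obtain ⟨x, hx, hxr, hns, hder⟩ := hDP (F := F) (p := r) hodd d hd
        exact fin x hx hxr hns hder
      · have hrp : r ≠ p := by
          rintro rfl
          apply hrq
          obtain ⟨n, hn⟩ := FiniteField.card F r
          rw [hn.2]
          exact dvd_pow_self r n.ne_zero
        rcases hAr (Fintype.card F) r d hr hr2 hrq h with ⟨h1, h2⟩ | ⟨h1, h2⟩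
        · obtain ⟨x, hx, hxr, hns, hder⟩ := hDA (F := F) (p := p) hodd d r hr hr2 hrp h1 h2
          exact fin x hx hxr hns hder
        · obtain ⟨x, hx, hxr, hns, hder⟩ := hDB (F := F) (p := p) hodd d r hr hr2 hrp h1 h2
          exact fin x hx hxr hns hder
  · rintro rfl x hx ⟨z, hz⟩ hns
    rw [Units.val_pow_eq_pow_val, pow_two] at hz
    -- z * z = 1
    have hzz : z * z = 1 := by
      have hv : (Pi.single (Sum.inl (⟨0, by omega⟩ : Fin d)) 1 : SI d → F) ≠ 0 := by
        intro h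
        have := congrFun h (Sum.inl (⟨0, by omega⟩ : Fin d))
        simp at this
      obtain ⟨w, hw⟩ := Cfsg.Agent.Lib.Helper40.exists_sympForm_eq_one d _ hv
      have hx' : ∀ u v : SI d → F, Cfsg.sympForm d F ((x : Matrix (SI d) (SI d) F) *ᵥ u)
          ((x : Matrix (SI d) (SI d) F) *ᵥ v) = Cfsg.sympForm d F u v := hx
      have h1 : Cfsg.sympForm d F ((x : Matrix (SI d) (SI d) F) *ᵥ (x : Matrix (SI d) (SI d) F) *ᵥ
          (Pi.single (Sum.inl (⟨0, by omega⟩ : Fin d)) 1 : SI d → F))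
          ((x : Matrix (SI d) (SI d) F) *ᵥ (x : Matrix (SI d) (SI d) F) *ᵥ w) = 1 := by
        rw [hx', hx', hw]
      rw [Matrix.mulVec_mulVec, Matrix.mulVec_mulVec, hz] at h1
      rw [Matrix.smul_mulVec, Matrix.smul_mulVec, Matrix.one_mulVec, Matrix.one_mulVec] at h1
      unfold Cfsg.sympForm at h1 hw
      rw [Matrix.mulVec_smul, dotProduct_smul, smul_dotProduct, hw] at h1
      simpa using h1
    have hz1 : z = 1 ∨ z = -1 := by
      have h : (z - 1) * (z + 1) = 0 := by ring_nf; rw [pow_two, hzz]; ring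
      rcases mul_eq_zero.mp h with h | h
      · left; exact sub_eq_zero.mp h
      · right; exact eq_neg_of_add_eq_zero_left h
    obtain ⟨α', hα', hpm⟩ : ∃ α' : Matrix (SI d) (SI d) F, IsAlpha d a α' ∧
        PM (x : Matrix (SI d) (SI d) F) α' := by
      rcases hz1 with rfl | rfl
      · exact hIP hodd d a ha x hx (by rw [hz, one_smul])
      · exact hIM hodd d a ha x hx (by rw [hz, neg_smul, one_smul])
    obtain ⟨g₁, hg₁, e₁⟩ := hNF hodd d a α ha hα
    obtain ⟨g₂, hg₂, e₂⟩ := hNF hodd d a α' ha hα'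
    refine ⟨g₂ * g₁⁻¹, (Cfsg.spGL d F).mul_mem hg₂ ((Cfsg.spGL d F).inv_mem hg₁), ?_⟩
    rw [key x hx _ ((Cfsg.spGL d F).mul_mem hg₂ ((Cfsg.spGL d F).inv_mem hg₁))]
    have e3 : ((g₂ * g₁⁻¹ : GL (SI d) F) : Matrix (SI d) (SI d) F) * α *
        (((g₂ * g₁⁻¹)⁻¹ : GL (SI d) F) : Matrix (SI d) (SI d) F) = α' := by
      rw [_root_.mul_inv_rev, inv_inv, Units.val_mul, Units.val_mul]
      calc (g₂ : Matrix (SI d) (SI d) F) * ((g₁⁻¹ : GL (SI d) F) : Matrix (SI d) (SI d) F) * α *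
            ((g₁ : Matrix (SI d) (SI d) F) * ((g₂⁻¹ : GL (SI d) F) : Matrix (SI d) (SI d) F))
          = (g₂ : Matrix (SI d) (SI d) F) * ((g₁⁻¹ : GL (SI d) F) : Matrix (SI d) (SI d) F) *
              (α * (g₁ : Matrix (SI d) (SI d) F)) *
              ((g₂⁻¹ : GL (SI d) F) : Matrix (SI d) (SI d) F) := by
            simp only [Matrix.mul_assoc]
        _ = (g₂ : Matrix (SI d) (SI d) F) * alpha0 d a *
              ((g₂⁻¹ : GL (SI d) F) : Matrix (SI d) (SI d) F) := by
            rw [e₁]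
            simp only [Matrix.mul_assoc]
            rw [← Matrix.mul_assoc ((g₁⁻¹ : GL (SI d) F) : Matrix (SI d) (SI d) F),
              gl_inv_mul, Matrix.one_mul]
        _ = α' := by
            rw [← e₂, Matrix.mul_assoc, gl_mul_inv, Matrix.mul_one]
    rw [e3]
    exact hpm

end Cfsg.Agent.Lib.Helper99.GUSP
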