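import Mathlib
import Cfsg.Agent.Lib.Helper99.GUSP.Defs

/-!
# S5976 (team project GUSP): package interface, part 2 (the sub-cut of [DERB])
-/

set_option autoImplicit false

namespace Cfsg.Agent.Lib.Helper99.GUSP

open Matrix Polynomial

universe u

/-- [TESTB] a test element for even `i`: `x ∈ Sp`, `x ^ r = 1`, not scalar, with an irreducible
`π` of degree `i` whose kernel `ker π(x)` has dimension `i` and is non-degenerate. -/
def PkgTestB : Prop :=
  ∀ {F : Type u} [Field F] [Fintype F] {p : ℕ} [Fact p.Prime] [CharP F p],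
    Odd (Fintype.card F) → ∀ (d r : ℕ), r.Prime → r ≠ 2 → r ≠ p →
    Even (orderOf ((Fintype.card F : ℕ) : ZMod r)) →
    orderOf ((Fintype.card F : ℕ) : ZMod r) ≤ 2 * d →
    ∃ (x : GL (SI d) F) (π : F[X]), x ∈ Cfsg.spGL d F ∧
      (x : Matrix (SI d) (SI d) F) ^ r = 1 ∧
      (∀ z : F, (x : Matrix (SI d) (SI d) F) ≠ z • (1 : Matrix (SI d) (SI d) F)) ∧
      Irreducible π ∧ π.natDegree = orderOf ((Fintype.card F : ℕ) : ZMod r) ∧
      Module.finrank F (LinearMap.ker (Matrix.toLin'
        (Polynomial.aeval (x : Matrix (SI d) (SI d) F) π))) = π.natDegree ∧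
      ∀ w ∈ LinearMap.ker (Matrix.toLin' (Polynomial.aeval (x : Matrix (SI d) (SI d) F) π)),
        (∀ w' ∈ LinearMap.ker (Matrix.toLin'
          (Polynomial.aeval (x : Matrix (SI d) (SI d) F) π)), Cfsg.sympForm d F w w' = 0) →
        w = 0

/-- [DERB2] the derangement for `4 ∣ i` from the commutant lemma and the test element. -/
def PkgDerB2 : Prop := PkgComm.{u} → PkgTestB.{u} → DerB.{u}

end Cfsg.Agent.Lib.Helper99.GUSP
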