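import Mathlib
import Cfsg.Agent.Lib.Helper99.GUSP.Defs2
import Cfsg.Agent.Lib.Helper94.Symp

/-!
# S5976 (GUSP): package [DERB2]

The derangement for `4 ∣ i` from the commutant lemma and the test element.
-/

set_option autoImplicit false

namespace Cfsg.Agent.Lib.Helper99.GUSP

open Matrix Polynomial

universe u

section Aux

variable {F : Type u} [Field F] {d : ℕ}

theorem db_commute_aeval {X α : Matrix (SI d) (SI d) F} (h : X * α = α * X) (g : F[X]) :
    aeval X g * α = α * aeval X g := by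
  have hc : Commute α X := h.symm
  have h2 : Commute α (aeval X g) := by
    rw [aeval_eq_sum_range]
    exact Commute.sum_right _ _ _ (fun e _ => (hc.pow_right e).smul_right _)
  exact h2.symm

/-- Adjoint of a polynomial in an isometry. -/
theorem db_adjoint {X Xi : Matrix (SI d) (SI d) F} (hX : ∀ u v : SI d → F,
    Cfsg.sympForm d F (X *ᵥ u) (X *ᵥ v) = Cfsg.sympForm d F u v) (hXi : X * Xi = 1) (g : F[X])
    (u v : SI d → F) :
    Cfsg.sympForm d F (aeval X g *ᵥ u) v = Cfsg.sympForm d F u (aeval Xi g *ᵥ v) := by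
  have h1 : ∀ u v : SI d → F, Cfsg.sympForm d F (X *ᵥ u) v = Cfsg.sympForm d F u (Xi *ᵥ v) := by
    intro u v
    have h := hX u (Xi *ᵥ v)
    rw [Matrix.mulVec_mulVec, hXi, Matrix.one_mulVec] at h
    exact h
  have hpow : ∀ (n : ℕ) (u v : SI d → F),
      Cfsg.sympForm d F (X ^ n *ᵥ u) v = Cfsg.sympForm d F u (Xi ^ n *ᵥ v) := by
    intro n
    induction n with
    | zero => intro u v; rw [pow_zero, pow_zero, Matrix.one_mulVec, Matrix.one_mulVec]
    | succ n ih =>
      intro u v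
      rw [pow_succ', ← Matrix.mulVec_mulVec, h1, ih, Matrix.mulVec_mulVec, ← pow_succ]
  induction g using Polynomial.induction_on' with
  | add p q hp hq =>
    rw [map_add, map_add, Matrix.add_mulVec, Matrix.add_mulVec,
      Cfsg.Agent.Lib.Helper94.sf_add_left, Cfsg.Agent.Lib.Helper94.sf_add_right, hp, hq]
  | monomial n c =>
    rw [aeval_monomial, aeval_monomial, Algebra.algebraMap_eq_smul_one, smul_mul_assoc, one_mul,
      smul_mul_assoc, one_mul, Matrix.smul_mulVec,
      Matrix.smul_mulVec, Cfsg.Agent.Lib.Helper94.sf_smul_left,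
      Cfsg.Agent.Lib.Helper94.sf_smul_right, hpow]

end Aux

section Main

variable {F : Type u} [Field F] [Fintype F] {d : ℕ}

/-- Frobenius: `expand (q^h) g = g^(q^h)`. -/
theorem db_expand (g : F[X]) (h : ℕ) :
    expand F (Fintype.card F ^ h) g = g ^ (Fintype.card F ^ h) := by
  induction h with
  | zero => rw [pow_zero, expand_one, pow_one]
  | succ h ih => rw [pow_succ, expand_mul, FiniteField.expand_card, map_pow, ih, ← pow_mul]

/-- `α ^ (q^(2k)) = α` when `α * α = a • 1`. -/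
theorem db_alpha_pow (hodd : Odd (Fintype.card F)) {a : F} (ha0 : a ≠ 0)
    {α : Matrix (SI d) (SI d) F} (hα : α * α = a • (1 : Matrix (SI d) (SI d) F)) (k : ℕ) :
    α ^ (Fintype.card F ^ (2 * k)) = α := by
  have h1 : α ^ (Fintype.card F ^ 2) = α := by
    obtain ⟨s, hs⟩ := hodd
    have e : Fintype.card F ^ 2 = 2 * ((Fintype.card F - 1) * (s + 1)) + 1 := by
      rw [hs, Nat.add_sub_cancel]
      ring
    rw [e, pow_succ, pow_mul, pow_two, hα, _root_.smul_pow, one_pow, pow_mul,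
      FiniteField.pow_card_sub_one_eq_one a ha0, one_pow, one_smul, one_mul]
  induction k with
  | zero => rw [Nat.mul_zero, pow_zero, pow_one]
  | succ k ih => rw [Nat.mul_succ, pow_add, pow_mul, ih, h1]

/-- **[DERB2]** -/
theorem pkgDerB2 : PkgDerB2.{u} := by
  intro hC hT F _ _ p _ _ hodd d r hr hr2 hrp h4 hle
  classical
  obtain ⟨i, hi⟩ : ∃ i : ℕ, i = orderOf ((Fintype.card F : ℕ) : ZMod r) := ⟨_, rfl⟩
  rw [← hi] at h4 hle
  have hev : Even i := by
    obtain ⟨k, hk⟩ := h4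
    exact ⟨2 * k, by omega⟩
  obtain ⟨x, π, hx, hxr, hns, hπ, hdeg, hfin, hnd⟩ :=
    hT hodd d r hr hr2 hrp (by rw [← hi]; exact hev) (by rw [← hi]; exact hle)
  rw [← hi] at hdeg
  refine ⟨x, hx, hxr, hns, ?_⟩
  intro a α ha hα hpm
  obtain ⟨X, hXdef⟩ : ∃ X : Matrix (SI d) (SI d) F, X = (x : Matrix (SI d) (SI d) F) := ⟨_, rfl⟩
  rw [← hXdef] at hxr hpm hfin hnd
  have hXiso : ∀ u v : SI d → F,
      Cfsg.sympForm d F (X *ᵥ u) (X *ᵥ v) = Cfsg.sympForm d F u v := by
    rw [hXdef]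
    exact hx
  have h2F : (2 : F) ≠ 0 := by
    apply Ring.two_ne_zero
    intro h
    have := FiniteField.even_card_iff_char_two.mp h
    obtain ⟨m, hm⟩ := hodd
    omega
  have ha0 : a ≠ 0 := by
    rintro rfl
    exact ha ⟨0, by simp⟩
  have hi0 : 0 < i := by
    rw [← hdeg]
    exact hπ.natDegree_pos
  -- reduce to the commuting case
  have hcomm : X * α = α * X := by
    rcases hpm with h | h
    · exact h
    · have h2 : (X * X) * α = α * (X * X) := by
        rw [Matrix.mul_assoc, h, Matrix.mul_neg, ← Matrix.mul_assoc, h, Matrix.neg_mul, neg_neg,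
          Matrix.mul_assoc]
      obtain ⟨m, hm⟩ := hr.odd_of_ne_two hr2
      have h3 : (X * X) ^ (m + 1) = X := by
        rw [← pow_two, ← pow_mul, show 2 * (m + 1) = r + 1 by omega, pow_succ, hxr, one_mul]
      have hc : Commute (X * X) α := h2
      have h4 := (hc.pow_left (m + 1))
      rw [h3] at h4
      exact h4
  -- the kernel
  obtain ⟨W, hW⟩ : ∃ W : Submodule F (SI d → F),
      W = LinearMap.ker (Matrix.toLin' (aeval X π)) := ⟨_, rfl⟩
  rw [← hW] at hfin hnd
  have hWmem : ∀ w, w ∈ W ↔ aeval X π *ᵥ w = 0 := by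
    intro w
    rw [hW, LinearMap.mem_ker, Matrix.toLin'_apply]
  have hWX : ∀ w ∈ W, X *ᵥ w ∈ W := by
    intro w hw
    rw [hWmem] at hw ⊢
    rw [Matrix.mulVec_mulVec, db_commute_aeval (rfl : X * X = X * X) π, ← Matrix.mulVec_mulVec, hw,
      Matrix.mulVec_zero]
  have hWα : ∀ w ∈ W, α *ᵥ w ∈ W := by
    intro w hw
    rw [hWmem] at hw ⊢
    rw [Matrix.mulVec_mulVec, db_commute_aeval hcomm π, ← Matrix.mulVec_mulVec, hw,
      Matrix.mulVec_zero]
  -- restrictions
  obtain ⟨y, hy⟩ : ∃ y : W →ₗ[F] W, ∀ w : W, ((y w : W) : SI d → F) = X *ᵥ (w : SI d → F) :=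
    ⟨(Matrix.toLin' X).restrict (fun w hw => by rw [Matrix.toLin'_apply]; exact hWX w hw),
      fun w => by rw [LinearMap.coe_restrict_apply, Matrix.toLin'_apply]⟩
  obtain ⟨T, hT'⟩ : ∃ T : W →ₗ[F] W, ∀ w : W, ((T w : W) : SI d → F) = α *ᵥ (w : SI d → F) :=
    ⟨(Matrix.toLin' α).restrict (fun w hw => by rw [Matrix.toLin'_apply]; exact hWα w hw),
      fun w => by rw [LinearMap.coe_restrict_apply, Matrix.toLin'_apply]⟩
  have hypow : ∀ (n : ℕ) (w : W), (((y ^ n) w : W) : SI d → F) = X ^ n *ᵥ (w : SI d → F) := by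
    intro n
    induction n with
    | zero => intro w; rw [pow_zero, pow_zero, Module.End.one_apply, Matrix.one_mulVec]
    | succ n ih =>
      intro w
      rw [pow_succ, Module.End.mul_apply, ih, hy, Matrix.mulVec_mulVec, ← pow_succ]
  have hyaeval : ∀ (g : F[X]) (w : W),
      ((aeval y g w : W) : SI d → F) = aeval X g *ᵥ (w : SI d → F) := by
    intro g
    induction g using Polynomial.induction_on' with
    | add p q hp hq =>
      intro w
      rw [map_add, map_add, LinearMap.add_apply, Submodule.coe_add, hp, hq, Matrix.add_mulVec]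
    | monomial n c =>
      intro w
      rw [aeval_monomial, aeval_monomial, Algebra.algebraMap_eq_smul_one, smul_mul_assoc, one_mul,
        Algebra.algebraMap_eq_smul_one, smul_mul_assoc, one_mul, LinearMap.smul_apply,
        Submodule.coe_smul, hypow, Matrix.smul_mulVec]
  have hyπ : aeval y π = 0 := by
    apply LinearMap.ext
    intro w
    apply Subtype.ext
    rw [hyaeval, LinearMap.zero_apply, Submodule.coe_zero]
    exact (hWmem _).mp w.2
  have hyT : y ∘ₗ T = T ∘ₗ y := by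
    apply LinearMap.ext
    intro w
    apply Subtype.ext
    rw [LinearMap.comp_apply, LinearMap.comp_apply, hy, hT', hT', hy, Matrix.mulVec_mulVec,
      Matrix.mulVec_mulVec, hcomm]
  obtain ⟨g, hg⟩ := hC y T π hπ hyπ hfin.symm hyT
  have hαg : ∀ w ∈ W, α *ᵥ w = aeval X g *ᵥ w := by
    intro w hw
    have h1 := hT' ⟨w, hw⟩
    rw [hg, hyaeval] at h1
    exact h1.symm
  -- the exponent
  obtain ⟨k, hk⟩ := h4
  have hζ : ((Fintype.card F : ℕ) : ZMod r) ^ (2 * k) = -1 := by
    haveI : Fact r.Prime := ⟨hr⟩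
    have h1 : (((Fintype.card F : ℕ) : ZMod r) ^ (2 * k)) *
        (((Fintype.card F : ℕ) : ZMod r) ^ (2 * k)) = 1 := by
      rw [← pow_add, show 2 * k + 2 * k = i by omega, hi, pow_orderOf_eq_one]
    rcases mul_self_eq_one_iff.mp h1 with h | h
    · exfalso
      have h5 := pow_ne_one_of_lt_orderOf (x := ((Fintype.card F : ℕ) : ZMod r)) (n := 2 * k)
        (by omega) (by rw [← hi]; omega)
      exact h5 h
    · exact h
  have hrN : r ∣ Fintype.card F ^ (2 * k) + 1 := by
    rw [← ZMod.natCast_eq_zero_iff]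
    push_cast
    rw [hζ]
    ring
  obtain ⟨t, ht⟩ := hrN
  obtain ⟨Xi, hXi⟩ : ∃ Xi : Matrix (SI d) (SI d) F, Xi = X ^ (Fintype.card F ^ (2 * k)) :=
    ⟨_, rfl⟩
  have hXXi : X * Xi = 1 := by
    rw [hXi, ← pow_succ', ht, pow_mul, hxr, one_pow]
  have hXig : aeval Xi g = (aeval X g) ^ (Fintype.card F ^ (2 * k)) := by
    rw [hXi, ← Polynomial.expand_aeval, db_expand, map_pow]
  have hpowW : ∀ (n : ℕ) (w : SI d → F), w ∈ W → (aeval X g) ^ n *ᵥ w = α ^ n *ᵥ w := by
    intro n
    induction n with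
    | zero => intro w _; rw [pow_zero, pow_zero]
    | succ n ih =>
      intro w hw
      rw [pow_succ, pow_succ, ← Matrix.mulVec_mulVec, ← hαg w hw, ih _ (hWα w hw),
        Matrix.mulVec_mulVec]
  have hkey : ∀ w ∈ W, ∀ w' ∈ W, Cfsg.sympForm d F w (α *ᵥ w') = 0 := by
    intro w hw w' hw'
    have e1 : Cfsg.sympForm d F (α *ᵥ w) w' = Cfsg.sympForm d F w (α *ᵥ w') := by
      rw [hαg w hw, db_adjoint hXiso hXXi, hXig, hpowW _ w' hw', db_alpha_pow hodd ha0 hα.1]
    have e2 := hα.2 w w'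
    rw [e1] at e2
    have h5 : (2 : F) * Cfsg.sympForm d F w (α *ᵥ w') = 0 := by linear_combination e2
    exact (mul_eq_zero.mp h5).resolve_left h2F
  have hW0 : ∀ w' ∈ W, w' = 0 := by
    intro w' hw'
    have h1 : α *ᵥ w' = 0 := by
      apply hnd _ (hWα w' hw')
      intro w hw
      rw [Cfsg.Agent.Lib.Helper94.sf_swap, hkey w hw w' hw', neg_zero]
    have h2 : α *ᵥ (α *ᵥ w') = a • w' := by
      rw [Matrix.mulVec_mulVec, hα.1, Matrix.smul_mulVec, Matrix.one_mulVec]
    rw [h1, Matrix.mulVec_zero] at h2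
    exact (smul_eq_zero.mp h2.symm).resolve_left ha0
  have hWbot : W = ⊥ := by
    rw [eq_bot_iff]
    intro w hw
    rw [Submodule.mem_bot]
    exact hW0 w hw
  rw [hWbot, finrank_bot] at hfin
  omega

end Main

end Cfsg.Agent.Lib.Helper99.GUSP
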