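import Mathlib
import Cfsg.Agent.Lib.Helper99.GUSP.Defs
import Cfsg.Agent.Lib.Helper45.HermGU
import Cfsg.Agent.Lib.Helper94.Symp

/-!
# S5976 (GUSP): package [GU]

A subgroup of `C_Sp(alpha0)` of order `|GU_d(q)|`, via the regular representation of a quadratic
extension `E = F(θ)`, `θ² = a`.
-/

set_option autoImplicit false

namespace Cfsg.Agent.Lib.Helper99.GUSP

open Matrix Polynomial

universe u

section Generic

variable {F : Type u} [Field F] {E : Type u} [Field E] [Algebra F E]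
  (b : Module.Basis (Fin 2) F E) (θ : E) (d : ℕ)

/-- The identification `F^{2d} → E^d`. -/
noncomputable def guPhi : (SI d → F) →ₗ[F] (Fin d → E) where
  toFun v := fun j => algebraMap F E (v (Sum.inl j)) + algebraMap F E (v (Sum.inr j)) * θ
  map_add' v w := by
    funext j
    simp only [Pi.add_apply, map_add]
    ring
  map_smul' c v := by
    funext j
    simp only [Pi.smul_apply, smul_eq_mul, map_mul, RingHom.id_apply, Algebra.smul_def]
    ring

theorem guPhi_apply (v : SI d → F) (j : Fin d) :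
    guPhi θ d v j = algebraMap F E (v (Sum.inl j)) + algebraMap F E (v (Sum.inr j)) * θ := rfl

variable {b θ}

theorem gu_coord (hb0 : b 0 = 1) (hb1 : b 1 = θ) (x y : F) :
    b.repr (algebraMap F E x + algebraMap F E y * θ) 0 = x ∧
      b.repr (algebraMap F E x + algebraMap F E y * θ) 1 = y := by
  have h : algebraMap F E x + algebraMap F E y * θ = x • b 0 + y • b 1 := by
    rw [hb0, hb1, Algebra.smul_def, Algebra.smul_def, mul_one]
  rw [h, map_add, map_smul, map_smul, Module.Basis.repr_self, Module.Basis.repr_self]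
  constructor
  · simp
  · simp

theorem gu_decomp (hb0 : b 0 = 1) (hb1 : b 1 = θ) (z : E) :
    z = algebraMap F E (b.repr z 0) + algebraMap F E (b.repr z 1) * θ := by
  have h := b.sum_repr z
  rw [Fin.sum_univ_two, hb0, hb1, Algebra.smul_def, Algebra.smul_def, mul_one] at h
  exact h.symm

theorem guPhi_injective (hb0 : b 0 = 1) (hb1 : b 1 = θ) : Function.Injective (guPhi (F := F) θ d) := by
  intro v w h
  funext s
  rcases s with j | j
  · have h1 := congrFun h j
    rw [guPhi_apply, guPhi_apply] at h1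
    have h2 := (gu_coord hb0 hb1 (v (Sum.inl j)) (v (Sum.inr j))).1
    rw [h1, (gu_coord hb0 hb1 (w (Sum.inl j)) (w (Sum.inr j))).1] at h2
    exact h2.symm
  · have h1 := congrFun h j
    rw [guPhi_apply, guPhi_apply] at h1
    have h2 := (gu_coord hb0 hb1 (v (Sum.inl j)) (v (Sum.inr j))).2
    rw [h1, (gu_coord hb0 hb1 (w (Sum.inl j)) (w (Sum.inr j))).2] at h2
    exact h2.symm

theorem guPhi_surjective (hb0 : b 0 = 1) (hb1 : b 1 = θ) :
    Function.Surjective (guPhi (F := F) θ d) := by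
  intro u
  refine ⟨fun s => Sum.elim (fun j => b.repr (u j) 0) (fun j => b.repr (u j) 1) s, ?_⟩
  funext j
  rw [guPhi_apply]
  exact (gu_decomp hb0 hb1 (u j)).symm

end Generic

section Rep

variable {F : Type u} [Field F] {E : Type u} [Field E] [Algebra F E]
  {b : Module.Basis (Fin 2) F E} {θ : E} {d : ℕ}

/-- The regular representation of `d × d` matrices over `E` on `F^{2d}`. -/
noncomputable def guPsi (hb0 : b 0 = 1) (hb1 : b 1 = θ) (M : Matrix (Fin d) (Fin d) E) :
    Matrix (SI d) (SI d) F :=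
  LinearMap.toMatrix'
    ((LinearEquiv.ofBijective (guPhi (F := F) θ d)
        ⟨guPhi_injective d hb0 hb1, guPhi_surjective d hb0 hb1⟩).symm.toLinearMap ∘ₗ
      ((Matrix.toLin' M).restrictScalars F) ∘ₗ guPhi (F := F) θ d)

theorem guPsi_spec (hb0 : b 0 = 1) (hb1 : b 1 = θ) (M : Matrix (Fin d) (Fin d) E)
    (v : SI d → F) : guPhi θ d (guPsi hb0 hb1 M *ᵥ v) = M *ᵥ guPhi θ d v := by
  unfold guPsi
  rw [← Matrix.toLin'_apply, Matrix.toLin'_toMatrix']
  simp only [LinearMap.coe_comp, Function.comp_apply, LinearEquiv.coe_coe,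
    LinearMap.restrictScalars_apply, Matrix.toLin'_apply]
  have h := (LinearEquiv.ofBijective (guPhi (F := F) θ d)
    ⟨guPhi_injective d hb0 hb1, guPhi_surjective d hb0 hb1⟩).apply_symm_apply
      (M *ᵥ guPhi θ d v)
  exact h

theorem gu_mat_ext {A B : Matrix (SI d) (SI d) F} (h : ∀ v, A *ᵥ v = B *ᵥ v) : A = B := by
  apply Matrix.toLin'.injective
  apply LinearMap.ext
  intro v
  rw [Matrix.toLin'_apply, Matrix.toLin'_apply, h]

theorem guPsi_one (hb0 : b 0 = 1) (hb1 : b 1 = θ) :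
    guPsi (d := d) hb0 hb1 (1 : Matrix (Fin d) (Fin d) E) = 1 := by
  apply gu_mat_ext
  intro v
  apply guPhi_injective d hb0 hb1
  rw [guPsi_spec, Matrix.one_mulVec, Matrix.one_mulVec]

theorem guPsi_mul (hb0 : b 0 = 1) (hb1 : b 1 = θ) (M N : Matrix (Fin d) (Fin d) E) :
    guPsi hb0 hb1 (M * N) = guPsi hb0 hb1 M * guPsi hb0 hb1 N := by
  apply gu_mat_ext
  intro v
  apply guPhi_injective d hb0 hb1
  rw [guPsi_spec, ← Matrix.mulVec_mulVec, ← Matrix.mulVec_mulVec, guPsi_spec, guPsi_spec]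

theorem guPsi_injective (hb0 : b 0 = 1) (hb1 : b 1 = θ) :
    Function.Injective (guPsi (d := d) hb0 hb1) := by
  intro M N h
  apply Matrix.toLin'.injective
  apply LinearMap.ext
  intro u
  obtain ⟨v, rfl⟩ := guPhi_surjective (F := F) d hb0 hb1 u
  rw [Matrix.toLin'_apply, Matrix.toLin'_apply, ← guPsi_spec hb0 hb1, ← guPsi_spec hb0 hb1, h]

/-- `alpha0` is multiplication by `θ`. -/
theorem guPhi_alpha0 (a : F) (hθ : θ * θ = algebraMap F E a) (v : SI d → F) :
    guPhi θ d (alpha0 d a *ᵥ v) = θ • guPhi θ d v := by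
  funext j
  rw [guPhi_apply, Pi.smul_apply, guPhi_apply, smul_eq_mul]
  have h1 : (alpha0 d a *ᵥ v) (Sum.inl j) = a * v (Sum.inr j) := by
    unfold alpha0
    rw [Matrix.fromBlocks_mulVec]
    simp [Matrix.mulVec, dotProduct, Matrix.one_apply]
  have h2 : (alpha0 d a *ᵥ v) (Sum.inr j) = v (Sum.inl j) := by
    unfold alpha0
    rw [Matrix.fromBlocks_mulVec]
    simp
  rw [h1, h2, map_mul, ← hθ]
  ring

theorem guPsi_alpha0 (hb0 : b 0 = 1) (hb1 : b 1 = θ) (a : F) (hθ : θ * θ = algebraMap F E a)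
    (M : Matrix (Fin d) (Fin d) E) :
    guPsi hb0 hb1 M * alpha0 d a = alpha0 d a * guPsi hb0 hb1 M := by
  apply gu_mat_ext
  intro v
  apply guPhi_injective d hb0 hb1
  rw [← Matrix.mulVec_mulVec, ← Matrix.mulVec_mulVec, guPsi_spec, guPhi_alpha0 a hθ,
    guPhi_alpha0 a hθ, guPsi_spec, Matrix.mulVec_smul]

end Rep

section Form

variable {F : Type u} [Field F] {E : Type u} [Field E] [Algebra F E]
  {b : Module.Basis (Fin 2) F E} {θ : E} {d : ℕ}

/-- The symplectic form is the `θ`-coordinate of the hermitian form. -/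
theorem gu_form (hb0 : b 0 = 1) (hb1 : b 1 = θ) (a : F) (hθ : θ * θ = algebraMap F E a) (q : ℕ)
    (hconj : ∀ x y : F, (algebraMap F E x + algebraMap F E y * θ) ^ q
      = algebraMap F E x - algebraMap F E y * θ) (v v' : SI d → F) :
    Cfsg.sympForm d F v v' = b.repr (Cfsg.hermForm d E q (guPhi θ d v) (guPhi θ d v')) 1 := by
  rw [Cfsg.Agent.Lib.Helper94.sf_eq]
  unfold Cfsg.hermForm
  rw [map_sum, Finsupp.finsetSum_apply]
  apply Finset.sum_congr rfl
  intro j _
  rw [guPhi_apply, guPhi_apply, hconj]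
  have h : (algebraMap F E (v (Sum.inl j)) + algebraMap F E (v (Sum.inr j)) * θ) *
      (algebraMap F E (v' (Sum.inl j)) - algebraMap F E (v' (Sum.inr j)) * θ)
      = algebraMap F E (v (Sum.inl j) * v' (Sum.inl j) - a * (v (Sum.inr j) * v' (Sum.inr j)))
        + algebraMap F E (v (Sum.inr j) * v' (Sum.inl j) - v (Sum.inl j) * v' (Sum.inr j)) * θ := by
    simp only [map_sub, map_mul, ← hθ]
    ring
  rw [h, (gu_coord hb0 hb1 _ _).2]

end Form

section Group

variable {F : Type u} [Field F] [Fintype F] {E : Type u} [Field E] [Algebra F E] [Fintype E]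
  {b : Module.Basis (Fin 2) F E} {θ : E}

/-- The generic form of [GU]. -/
theorem gu_generic (d : ℕ) (hb0 : b 0 = 1) (hb1 : b 1 = θ) (a : F)
    (hθ : θ * θ = algebraMap F E a) (q : ℕ) (hq : Fintype.card E = q ^ 2)
    (hconj : ∀ x y : F, (algebraMap F E x + algebraMap F E y * θ) ^ q
      = algebraMap F E x - algebraMap F E y * θ) :
    ∃ S : Subgroup (GL (SI d) F), S ≤ Cfsg.spGL d F ∧
      (∀ g ∈ S, (g : Matrix (SI d) (SI d) F) * alpha0 d a
        = alpha0 d a * (g : Matrix (SI d) (SI d) F)) ∧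
      Nat.card S = q ^ (d * (d - 1) / 2) *
        ∏ i ∈ Finset.range d, (if Even i then q ^ (i + 1) + 1 else q ^ (i + 1) - 1) := by
  classical
  obtain ⟨ψ, hψ⟩ : ∃ ψ : Matrix (Fin d) (Fin d) E →* Matrix (SI d) (SI d) F,
      ∀ M, ψ M = guPsi hb0 hb1 M :=
    ⟨{ toFun := guPsi hb0 hb1, map_one' := guPsi_one hb0 hb1, map_mul' := guPsi_mul hb0 hb1 },
      fun _ => rfl⟩
  have hψinj : Function.Injective ψ := by
    intro M N h
    rw [hψ, hψ] at h
    exact guPsi_injective hb0 hb1 h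
  have hρ : ∀ g : GL (Fin d) E, ((Units.map ψ g : GL (SI d) F) : Matrix (SI d) (SI d) F)
      = guPsi hb0 hb1 (g : Matrix (Fin d) (Fin d) E) := by
    intro g
    rw [Units.coe_map, hψ]
  refine ⟨(Cfsg.GU d E q).map (Units.map ψ), ?_, ?_, ?_⟩
  · rintro _ ⟨g, hg, rfl⟩
    have hg' : ∀ u v : Fin d → E, Cfsg.hermForm d E q ((g : Matrix (Fin d) (Fin d) E) *ᵥ u)
        ((g : Matrix (Fin d) (Fin d) E) *ᵥ v) = Cfsg.hermForm d E q u v := hg
    show ∀ u v : SI d → F, Cfsg.sympForm d F
      (((Units.map ψ g : GL (SI d) F) : Matrix (SI d) (SI d) F) *ᵥ u)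
      (((Units.map ψ g : GL (SI d) F) : Matrix (SI d) (SI d) F) *ᵥ v) = Cfsg.sympForm d F u v
    intro u v
    rw [hρ, gu_form hb0 hb1 a hθ q hconj, gu_form hb0 hb1 a hθ q hconj, guPsi_spec, guPsi_spec,
      hg']
  · rintro _ ⟨g, -, rfl⟩
    rw [hρ]
    exact guPsi_alpha0 hb0 hb1 a hθ _
  · rw [Subgroup.card_map_of_injective (Units.map_injective hψinj)]
    exact Cfsg.Agent.Lib.Helper45.card_GU hq d

end Group

section Inst

/-- **[GU]** a subgroup of `C_Sp(alpha0)` of order `|GU_d(q)|`. -/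
theorem pkgGU : PkgGU.{u} := by
  intro F _ _ hodd d a ha
  classical
  have h2 : ringChar F ≠ 2 := by
    intro h
    have := FiniteField.even_card_iff_char_two.mp h
    obtain ⟨m, hm⟩ := hodd
    omega
  have ha0 : a ≠ 0 := by
    rintro rfl
    exact ha ⟨0, by simp⟩
  obtain ⟨f, hf⟩ : ∃ f : F[X], f = X ^ 2 - C a := ⟨_, rfl⟩
  have hfdeg : f.natDegree = 2 := by rw [hf]; exact natDegree_X_pow_sub_C
  have hf0 : f ≠ 0 := by
    intro h
    rw [h, natDegree_zero] at hfdeg
    omega
  have hirr : Irreducible f := by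
    apply Polynomial.irreducible_of_degree_le_three_of_not_isRoot (by rw [hfdeg]; simp)
    intro x hx
    rw [hf, IsRoot, eval_sub, eval_pow, eval_X, eval_C, sub_eq_zero] at hx
    exact ha ⟨x, by rw [← hx, pow_two]⟩
  haveI : Fact (Irreducible f) := ⟨hirr⟩
  obtain ⟨pb, hpb⟩ : ∃ pb : PowerBasis F (AdjoinRoot f), pb = AdjoinRoot.powerBasis hf0 :=
    ⟨_, rfl⟩
  have hdim : pb.dim = 2 := by rw [hpb, AdjoinRoot.powerBasis_dim, hfdeg]
  have hgen : pb.gen = AdjoinRoot.root f := by rw [hpb, AdjoinRoot.powerBasis_gen]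
  obtain ⟨b, hb⟩ : ∃ b : Module.Basis (Fin 2) F (AdjoinRoot f),
      b = pb.basis.reindex (finCongr hdim) := ⟨_, rfl⟩
  have hb0 : b 0 = 1 := by
    rw [hb, Module.Basis.reindex_apply, pb.basis_eq_pow]
    simp
  have hb1 : b 1 = AdjoinRoot.root f := by
    rw [hb, Module.Basis.reindex_apply, pb.basis_eq_pow, hgen]
    simp
  haveI : Module.Finite F (AdjoinRoot f) := pb.finite
  haveI : Finite (AdjoinRoot f) := Module.finite_of_finite F
  letI : Fintype (AdjoinRoot f) := Fintype.ofFinite _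
  have hcard : Fintype.card (AdjoinRoot f) = Fintype.card F ^ 2 := by
    rw [Module.card_eq_pow_finrank (K := F), pb.finrank, hdim]
  have hθ : AdjoinRoot.root f * AdjoinRoot.root f = algebraMap F (AdjoinRoot f) a := by
    have h : (X ^ 2 - C a : F[X]).eval₂ (AdjoinRoot.of f) (AdjoinRoot.root f) = 0 := by
      rw [← hf]
      exact AdjoinRoot.eval₂_root f
    rw [eval₂_sub, eval₂_pow, eval₂_X, eval₂_C, sub_eq_zero] at h
    rw [AdjoinRoot.algebraMap_eq, ← h, pow_two]
  obtain ⟨p, hp⟩ := CharP.exists F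
  haveI := hp
  haveI : Fact p.Prime := ⟨CharP.char_is_prime F p⟩
  obtain ⟨n, -, hn⟩ := FiniteField.card F p
  haveI : CharP (AdjoinRoot f) p :=
    charP_of_injective_algebraMap (algebraMap F (AdjoinRoot f)).injective p
  have hpow : a ^ (Fintype.card F / 2) = -1 := by
    rcases FiniteField.pow_dichotomy h2 ha0 with h | h
    · exact absurd ((FiniteField.isSquare_iff h2 ha0).mpr h) ha
    · exact h
  have hθq : AdjoinRoot.root f ^ Fintype.card F = - AdjoinRoot.root f := by
    obtain ⟨m, hm⟩ := hodd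
    have h1 : Fintype.card F / 2 = m := by omega
    rw [h1] at hpow
    rw [hm, pow_succ, pow_mul, pow_two, hθ, ← map_pow, hpow, map_neg, map_one, neg_one_mul]
  have hconj : ∀ x y : F, (algebraMap F (AdjoinRoot f) x +
      algebraMap F (AdjoinRoot f) y * AdjoinRoot.root f) ^ Fintype.card F
      = algebraMap F (AdjoinRoot f) x - algebraMap F (AdjoinRoot f) y * AdjoinRoot.root f := by
    intro x y
    have e1 : (algebraMap F (AdjoinRoot f) x + algebraMap F (AdjoinRoot f) y * AdjoinRoot.root f)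
        ^ Fintype.card F = (algebraMap F (AdjoinRoot f) x) ^ Fintype.card F +
          (algebraMap F (AdjoinRoot f) y * AdjoinRoot.root f) ^ Fintype.card F := by
      rw [hn]
      exact add_pow_char_pow (R := AdjoinRoot f) (p := p) (n := (n : ℕ)) _ _
    rw [e1, mul_pow, hθq, ← map_pow, ← map_pow, FiniteField.pow_card, FiniteField.pow_card]
    ring
  exact gu_generic d hb0 hb1 a hθ (Fintype.card F) hcard hconj

end Inst

end Cfsg.Agent.Lib.Helper99.GUSP
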